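import Mathlib
import Cfsg.Agent.BW.B
import Cfsg.Agent.Isaacs.CD
import Cfsg.Agent.Isaacs.Prim
import Cfsg.Agent.PGrp.Basic

/-!
# Solvable groups with squarefree character degrees
-/

set_option autoImplicit false

namespace Cfsg.Agent.BW

open Cfsg.Agent.BG Cfsg.Agent.BG.Amb Cfsg.Agent.H23.HH Cfsg.Agent.Isaacs
open scoped commutatorElement Pointwise ComplexConjugate
open Subgroup (zpowers)

universe u

variable {G : Type u} [Group G] [Finite G]

theorem dvd_of_sqfree {q n : ℕ} {P : Subgroup G} [hq : Fact q.Prime] (hP : IsPGroup q P)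
    (hn : n ∣ Nat.card P) (hs : Squarefree n) : n ∣ q := by
  obtain ⟨k, hk⟩ := hP.exists_card_eq
  exact (hs.isRadical k q (hk ▸ hn))

theorem inf_le_of_relIndex_prime {A B Q : Subgroup G} {q : ℕ} (hq : q.Prime)
    (h : A.relIndex Q ∣ q) (hAB : A ⊓ Q ≤ B) (hB : ¬ Q ≤ B) : B ⊓ Q ≤ A := by
  have e := Subgroup.relIndex_mul_relIndex (A ⊓ Q) (B ⊓ Q) Q (le_inf hAB inf_le_right) inf_le_right
  rw [Subgroup.inf_relIndex_right A Q, Subgroup.inf_relIndex_right B Q] at e
  have h1 : B.relIndex Q = q := ((Nat.dvd_prime hq).1 ((Dvd.intro_left _ e).trans h)).resolve_left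
    fun h1 => hB (Subgroup.relIndex_eq_one.1 h1)
  rw [← e, h1] at h
  have h2 : (A ⊓ Q).relIndex (B ⊓ Q) = 1 :=
    Nat.dvd_one.1 (Nat.dvd_of_mul_dvd_mul_right hq.pos (by simpa using h))
  exact (Subgroup.relIndex_eq_one.1 h2).trans inf_le_left

theorem der_le_of_pgroup {q : ℕ} [hq : Fact q.Prime] {P H : Subgroup G} (hP : IsPGroup q P)
    (h : H.relIndex P ∣ q) : ⁅P, P⁆ ≤ H := by
  by_cases hle : P ≤ H
  · exact (der_le P).trans hle
  have h1 : H.relIndex P = q := ((Nat.dvd_prime hq.out).1 h).resolve_left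
    fun h1 => hle (Subgroup.relIndex_eq_one.1 h1)
  have hlt : H ⊓ P < P := lt_of_le_of_ne inf_le_right fun e => hle (inf_eq_right.1 e)
  have hn : P ≤ 𝐍(H ⊓ P) := by
    by_contra hn
    have h2 := inf_le_of_relIndex_prime hq.out h Subgroup.le_normalizer hn
    exact (Core.lt_inf_normalizer_of_nilpotent hP.isNilpotent hlt).not_ge
      (le_inf ((inf_comm _ _).le.trans h2) inf_le_left)
  exact (PGrp.commutator_le_of_relIndex_prime hq.out inf_le_right hn
    (by rwa [Subgroup.inf_relIndex_right])).trans inf_le_left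

theorem der_le_of_sqfree (H : Subgroup G) (n : ℕ) : ∀ N : Subgroup G, Nat.card N = n →
    Group.IsNilpotent N → Squarefree (H.relIndex N) → ⁅N, N⁆ ≤ H := by
  induction n using Nat.strong_induction_on with
  | _ n ih =>
  intro N hn hN hs
  by_cases h0 : N = ⊥
  · rw [h0, Subgroup.commutator_bot_left]; exact bot_le
  obtain ⟨p, hp, hd⟩ := Nat.exists_prime_and_dvd (mt Subgroup.card_eq_one.1 h0)
  have := Fact.mk hp
  obtain ⟨hsup, -, hc⟩ := nil_dProd {p} hN
  have hK : piCoreOf {p}ᶜ N < N := lt_of_le_of_ne (piCoreOf_le _ N) fun e =>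
    piCoreOf_pi {p}ᶜ N p hp (e.symm ▸ hd) rfl
  have h1 := ih _ (hn ▸ Core.card_lt_of_lt hK) _ rfl (Core.nilpotent_of_le hK.le hN)
    (hs.squarefree_of_dvd (FGS.relIndex_dvd_relIndex_of_normal hK.le (le_norm_piCoreOf _ N) H))
  have h2 := der_le_of_pgroup (piCoreOf_isPGroup (p := p) N) (dvd_of_sqfree (piCoreOf_isPGroup N)
    (Subgroup.relIndex_dvd_card H _) (hs.squarefree_of_dvd
      (FGS.relIndex_dvd_relIndex_of_normal (piCoreOf_le _ N) (le_norm_piCoreOf _ N) H)))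
  rw [← hsup]
  refine (der_sup_le (L := ⁅piCoreOf {p} N, piCoreOf {p} N⁆ ⊔ ⁅piCoreOf {p}ᶜ N, piCoreOf {p}ᶜ N⁆)
    ?_ le_sup_left ?_ le_sup_right).trans (sup_le h2 h1)
  · rw [hsup]
    exact le_norm_sup (le_norm_comm (le_norm_piCoreOf _ N) (le_norm_piCoreOf _ N))
      (le_norm_comm (le_norm_piCoreOf _ N) (le_norm_piCoreOf _ N))
  · first
    | (rw [le_cent_iff_comm_eq_bot.1 hc]; exact bot_le)
    | (rw [le_cent_iff_comm_eq_bot'.1 hc]; exact bot_le)

theorem sqfree_stab (h : CD (⊥ : Subgroup G) ⊤ Squarefree) {N : Subgroup G} [N.Normal]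
    {θ : G → ℂ} (hθ : Irr N θ) : Squarefree (stab N θ).index := by
  obtain ⟨χ, h1, h2⟩ := hθ.exists_over le_top
  have e := h1.deg_eq Subgroup.le_normalizer_of_normal le_top hθ h2
  obtain ⟨m, hm⟩ := (h1.chr.res le_top).inn_nat hθ.chr
  obtain ⟨d, -, hd⟩ := hθ.deg
  rw [hm, hd, Subgroup.relIndex_top_right] at e
  exact (h χ h1 ker_bot (m * ((stab N θ).index * d)) (by rw [e]; push_cast; rfl)).squarefree_of_dvd
    ((Dvd.intro _ rfl).mul_left m)

theorem metabelian_of_nil (h : CD (⊥ : Subgroup G) ⊤ Squarefree) {N : Subgroup G} [N.Normal]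
    (hN : Group.IsNilpotent N) : ⁅⁅N, N⁆, ⁅N, N⁆⁆ = ⊥ := by
  refine le_bot_iff.1 fun z hz => by_contra fun hz1 => ?_
  obtain ⟨χ, h1, -, h2⟩ := exists_irr_not_ker le_norm_bot bot_le (der_le N (der_le _ hz)) hz1
  obtain ⟨H, ψ, h3, h4, h5, h6⟩ := h1.monomial hN
  obtain ⟨k, -, hk⟩ := h.under Subgroup.le_normalizer_of_normal le_top χ h1 ker_bot (H.relIndex N)
    (by rw [← h6.one, ind_one, h5, mul_one])
  have h7 := der_le_of_sqfree H _ N rfl hN (hk.squarefree_of_dvd (Dvd.intro_left _ rfl))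
  exact h2 ((((h4.chr.ker_comm h5).mono (der_mono h7)).indc ((der_le _).trans h7) h3
    (le_norm_comm (le_norm_der N) (le_norm_der N))).congr (h6.mono ((der_le _).trans (der_le N))) z hz)

section Lin

variable {V : Subgroup G} [hV : V.Normal] {θ φ : G → ℂ} {x y : G}

omit [Finite G] in
theorem mem_stab' : x ∈ stab V θ ↔ ∀ v ∈ V, θ (x * v * x⁻¹) = θ v :=
  mem_stab.trans (and_iff_right (Subgroup.le_normalizer_of_normal (Subgroup.mem_top x)))

theorem stab_cancel (h : Chr V θ) (h1 : θ 1 = 1) (hy : y ∈ stab V θ) (hy' : y ∈ stab V (θ * φ)) :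
    y ∈ stab V φ := mem_stab'.2 fun v hv => by
  have := mem_stab'.1 hy' v hv
  rw [Pi.mul_apply, Pi.mul_apply, mem_stab'.1 hy v hv] at this
  exact mul_left_cancel₀ (h.ne_zero h1 hv) this

/-- The commutator character. -/
def mu (θ : G → ℂ) (x : G) : G → ℂ := cj x θ * fun v => conj (θ v)

omit [Finite G] in
theorem mem_stab_mu (hy : y ∈ stab V θ) (hy' : x * y * x⁻¹ ∈ stab V θ) : y ∈ stab V (mu θ x) :=
  mem_stab'.2 fun v hv => by
    have := mem_stab'.1 hy' _ (hV.conj_mem v hv x)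
    simp only [mu, Pi.mul_apply, cj_apply, mem_stab'.1 hy v hv, ← this]
    congr 2
    group

theorem irr_mu (h : Chr V θ) (h1 : θ 1 = 1) : Irr V (mu θ x) :=
  ((h.cjg (Subgroup.le_normalizer_of_normal (Subgroup.mem_top x))).mul h.cnj).irr_of_one (by
    simp [cj_apply, h1])

theorem mem_stab_of_ker (h : Chr V θ) (h1 : θ 1 = 1) (hk : Ker V (mu θ x)) : x ∈ stab V θ :=
  mem_stab'.2 fun v hv => by
    have := hk v hv
    simp only [mu, Pi.mul_apply, cj_apply, mul_one, mul_inv_cancel, h1, map_one] at this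
    rw [← h.mul_conj h1 hv] at this
    exact mul_right_cancel₀ (by simpa using h.ne_zero h1 hv) this

theorem mu_mul (h : Chr V θ) (h1 : θ 1 = 1) (hx : x ∈ stab V θ) :
    Eqv V (mu (θ * φ) x) (mu φ x) := fun v hv => by
  have := h.mul_conj h1 hv
  simp only [mu, Pi.mul_apply, cj_apply, mem_stab'.1 hx v hv, map_mul]
  linear_combination (φ (x * v * x⁻¹) * conj (φ v)) * this

theorem relIndex_cent_dvd (hc : V ≤ 𝐂(V))
    (hmin : ∀ L : Subgroup G, L.Normal → L ≤ V → L = ⊥ ∨ L = V) {Q : Subgroup G} [Q.Normal]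
    {q : ℕ} (hq : q.Prime)
    (hS : ∀ θ, Irr V θ → (stab V θ).relIndex Q ∣ q ∧ ⁅Q, Q⁆ ≤ stab V θ) :
    (𝐂(V)).relIndex Q ∣ q := by
  by_cases hQ : Q ≤ 𝐂(V)
  · rw [Subgroup.relIndex_eq_one.2 hQ]; exact one_dvd q
  have one : ∀ θ, Irr V θ → θ 1 = 1 := fun θ h =>
    h.one_of_comm fun a ha b hb => mem_cent_of_le_cent hc ha hb
  have hfix : ∀ θ, Irr V θ → Q ≤ stab V θ → Ker V θ := fun θ h hle => by
    have h1 : ⁅V, Q⁆ = V := (hmin _ inferInstance (comm_le_left Subgroup.le_normalizer_of_normal)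
      ).resolve_left fun e => hQ (le_cent_iff_comm_eq_bot'.2 e)
    refine h.chr.ker_kerS.mono (h1.ge.trans (Subgroup.commutator_le.2 fun v hv x hx => ?_))
    have h2 := hV.conj_mem _ (V.inv_mem hv) x
    rw [commutatorElement_def, mul_assoc, mul_assoc, ← mul_assoc x]
    refine h.chr.mem_kerS.2 ⟨V.mul_mem hv h2, ?_⟩
    rw [h.chr.map_mul (one θ h) hv h2, mem_stab'.1 (hle hx) _ (V.inv_mem hv),
      ← h.chr.map_mul (one θ h) hv (V.inv_mem hv), mul_inv_cancel]
  obtain ⟨z, hz, hz1⟩ := exists_mem_ne_one (H := V) fun e => hQ (by rw [e, cent_bot]; exact le_top)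
  obtain ⟨θ₀, h0, -, h0'⟩ := exists_irr_not_ker le_norm_bot bot_le hz hz1
  have hQ0 : ¬ Q ≤ stab V θ₀ := fun e => h0' (hfix _ h0 e z hz)
  have key : stab V θ₀ ⊓ Q ≤ 𝐂(V) := by
    rintro x ⟨hx0, hxQ⟩
    refine mem_cent.2 fun v hv => by_contra fun hne => ?_
    have hw := hV.conj_mem v hv x
    obtain ⟨θ₁, h1, -, h1'⟩ := exists_irr_not_ker le_norm_bot bot_le
      (V.mul_mem hw (V.inv_mem hv)) fun e => hne (by
        rw [Subgroup.mem_bot, mul_inv_eq_one, mul_inv_eq_iff_eq_mul] at e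
        exact e.symm)
    have hx1 : x ∉ stab V θ₁ := fun e => h1' (by
      rw [h1.chr.map_mul (one _ h1) hw (V.inv_mem hv), mem_stab'.1 e v hv,
        ← h1.chr.map_mul (one _ h1) hv (V.inv_mem hv), mul_inv_cancel])
    have h2 : Irr V (θ₀ * θ₁) := h0.mul_lin h1.chr (one _ h1)
    have hm : ∀ θ, Irr V θ → stab V θ ⊓ Q ≤ stab V (mu θ x) := fun θ h y hy =>
      mem_stab_mu hy.1 (by
        rw [show x * y * x⁻¹ = ⁅x, y⁆ * y by rw [commutatorElement_def]; group]
        exact (stab V θ).mul_mem ((hS θ h).2 (Subgroup.commutator_mem_commutator hxQ hy.2)) hy.1)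
    have hμ : ¬ Q ≤ stab V (mu θ₁ x) := fun e =>
      hx1 (mem_stab_of_ker h1.chr (one _ h1) (hfix _ (irr_mu h1.chr (one _ h1)) e))
    have h3 := inf_le_of_relIndex_prime hq (hS _ h1).1 (hm _ h1) hμ
    have h4 : stab V (θ₀ * θ₁) ⊓ Q ≤ stab V θ₀ := fun y hy =>
      stab_cancel h1.chr (one _ h1) (h3 ⟨stab_congr (mu_mul (φ := θ₁) h0.chr (one _ h0) hx0) ▸
        hm _ h2 hy, hy.2⟩) (mul_comm θ₀ θ₁ ▸ hy.1)
    exact hx1 (stab_cancel h0.chr (one _ h0) hx0
      (inf_le_of_relIndex_prime hq (hS _ h2).1 h4 hQ0 ⟨hx0, hxQ⟩))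
  refine (Subgroup.relIndex_dvd_of_le_left Q key).trans ?_
  rw [Subgroup.inf_relIndex_right]
  exact (hS _ h0).1

end Lin

theorem der2_le_cent (hs : Group.IsSolvable G) (h : CD (⊥ : Subgroup G) ⊤ Squarefree)
    {V : Subgroup G} [hV : V.Normal] (hc : V ≤ 𝐂(V))
    (hmin : ∀ L : Subgroup G, L.Normal → L ≤ V → L = ⊥ ∨ L = V) : derivedSeries G 2 ≤ 𝐂(V) := by
  set π := QuotientGroup.mk' (𝐂(V)) with hπdef
  have hπ : Function.Surjective π := QuotientGroup.mk'_surjective _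
  have h1 : fittingOf (⊤ : Subgroup (G ⧸ 𝐂(V))) ≤ 𝐂((⁅(⊤ : Subgroup (G ⧸ 𝐂(V))), ⊤⁆ : Subgroup (G ⧸ 𝐂(V)))) := by
    refine fittingOf_le_of_forall_piCoreOf fun q hq _ => ?_
    have := Fact.mk hq
    set O := piCoreOf {q} (⊤ : Subgroup (G ⧸ 𝐂(V)))
    have hO : IsPGroup q O := piCoreOf_isPGroup ⊤
    have hOn : O.Normal := normal_of_top_le (le_norm_piCoreOf _ ⊤)
    have hk : ∀ θ, 𝐂(V) ≤ stab V θ := fun θ x hx => mem_stab'.2 fun v hv => by
      rw [← mem_cent.1 hx v hv, mul_inv_cancel_right]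
    have hd := relIndex_cent_dvd hc hmin (Q := O.comap π) hq fun θ hθ => by
      have e0 : ((stab V θ).map π).comap π = stab V θ := by
        rw [Subgroup.comap_map_eq, hπdef, QuotientGroup.ker_mk', sup_eq_left.2 (hk θ)]
      have e : (stab V θ).relIndex (O.comap π) = ((stab V θ).map π).relIndex O := by
        conv_lhs => rw [← e0]
        rw [Subgroup.relIndex_comap, Subgroup.map_comap_eq_self_of_surjective hπ]
      have e2 : ((stab V θ).map π).relIndex O ∣ q := dvd_of_sqfree hO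
        (Subgroup.relIndex_dvd_card _ _) (e ▸ (sqfree_stab h hθ).squarefree_of_dvd
          (FGS.relIndex_dvd_index_of_normal_right _ _))
      refine ⟨e ▸ e2, (Subgroup.map_le_iff_le_comap.1 ?_).trans e0.le⟩
      rw [Subgroup.map_commutator, Subgroup.map_comap_eq_self_of_surjective hπ]
      exact der_le_of_pgroup hO e2
    have hcard : Nat.card O ∣ q := by
      have e := Subgroup.relIndex_ker (O.comap π) π
      rw [Subgroup.map_comap_eq_self_of_surjective hπ, hπdef, QuotientGroup.ker_mk'] at e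
      exact e ▸ hd
    exact le_cent_symm (der_le_cent_of_cyclic (isCyclic_of_card_dvd_prime hcard)
      Subgroup.le_normalizer_of_normal)
  have h2 := (le_inf le_top (le_cent_symm h1)).trans (cent_fittingOf_le inferInstance) |>.trans h1
  rw [le_cent_iff_comm_eq_bot, ← Subgroup.map_top_of_surjective π hπ, ← Subgroup.map_commutator,
    ← Subgroup.map_commutator, Subgroup.map_eq_bot_iff, QuotientGroup.ker_mk'] at h2
  exact h2

theorem der4_eq_bot (hs : Group.IsSolvable G) (h : CD (⊥ : Subgroup G) ⊤ Squarefree) :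
    derivedSeries G 4 = ⊥ := by
  refine metabelian_of_nil (N := derivedSeries G 2) h ?_
  set K := derivedSeries G 2 with hK
  rw [← nres_eq_bot_iff]
  by_contra hU
  have hUn : (nres K).Normal := normal_of_top_le (le_norm_nres Subgroup.le_normalizer_of_normal)
  set U := nres K with hUdef
  obtain ⟨M, -, ⟨hM, hMU⟩, hmax⟩ := Finite.exists_le_maximal (p := fun M : Subgroup G =>
    M.Normal ∧ M < U) (a := ⊥) ⟨inferInstance, bot_lt_iff_ne_bot.2 hU⟩
  set π := QuotientGroup.mk' M with hπdef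
  have hπ : Function.Surjective π := QuotientGroup.mk'_surjective _
  have hVn : (U.map π).Normal := hUn.map _ hπ
  have hmin : ∀ L : Subgroup (G ⧸ M), L.Normal → L ≤ U.map π → L = ⊥ ∨ L = U.map π := by
    intro L hL hle
    have h2 : L.comap π ≤ U := by
      refine (Subgroup.comap_mono hle).trans ?_
      rw [Subgroup.comap_map_eq, QuotientGroup.ker_mk', sup_eq_left.2 hMU.le]
    rw [← Subgroup.map_comap_eq_self_of_surjective hπ L]
    refine (h2.eq_or_lt).symm.imp (fun h3 => ?_) fun h3 => by rw [h3]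
    rw [Subgroup.map_eq_bot_iff, QuotientGroup.ker_mk']
    exact hmax ⟨hL.comap π, h3⟩ ((QuotientGroup.ker_mk' M).ge.trans (Subgroup.ker_le_comap π L))
  have hne : U.map π ≠ ⊥ := by
    rw [Ne, Subgroup.map_eq_bot_iff, QuotientGroup.ker_mk']
    exact hMU.not_ge
  have hc : U.map π ≤ 𝐂(U.map π) := le_cent_iff_comm_eq_bot.2
    ((hmin _ inferInstance (der_le _)).resolve_right
      (Core.commutator_lt_of_solvable inferInstance hne).ne)
  have h1 := der2_le_cent inferInstance (h.mono bot_le fun _ => id).quot hc hmin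
  rw [← map_derivedSeries_eq hπ, le_cent_iff_comm_eq_bot', ← Subgroup.map_commutator,
    Subgroup.map_eq_bot_iff, QuotientGroup.ker_mk'] at h1
  exact hMU.not_ge ((nres_comm K).ge.trans h1)

end Cfsg.Agent.BW
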